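import Cfsg.Agent.Lib.ToddCox.J3T.P0
set_option autoImplicit false
set_option maxRecDepth 100000
namespace Cfsg.Agent.Lib.ToddCox.J3T
theorem covered : Covered Eo inv W isH 28950 72313 := (Covered.trans (Covered.trans (Covered.trans (Covered.trans c0 c1) (Covered.trans c2 (Covered.trans c3 c4))) (Covered.trans (Covered.trans c5 (Covered.trans c6 c7)) (Covered.trans c8 (Covered.trans c9 c10)))) (Covered.trans (Covered.trans (Covered.trans c11 (Covered.trans c12 c13)) (Covered.trans c14 (Covered.trans c15 c16))) (Covered.trans (Covered.trans c17 (Covered.trans c18 c19)) (Covered.trans c20 (Covered.trans c21 c22)))))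
theorem links : LinksOK Eo cF (2 * nEv) N ys 0 6156 := (LinksOK.trans (LinksOK.trans k0 (LinksOK.trans k1 k2)) (LinksOK.trans (LinksOK.trans k3 k4) (LinksOK.trans k5 k6)))
theorem defs : ∀ c, c < nDef → chkDef Eo inv c = true := defs_of_bits 28950 13 4 (by norm_num) (by
  intro j hj
  interval_cases j
  · exact d0
  · exact d1
  · exact d2
  · exact d3
  )
theorem words : ∀ j, j < nW → wordsOK W (relR Rb inv) inv sp j = true := allBelow_spec (by norm_num [nW]) wordsGood
end Cfsg.Agent.Lib.ToddCox.J3T
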