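import Cfsg.Agent.Lib.ToddCox.J3T.Tab
set_option autoImplicit false
set_option maxRecDepth 100000
namespace Cfsg.Agent.Lib.ToddCox.J3T
theorem a0 : allBits chkAll 10 0 = true := by decide +kernel
theorem a1 : allBits chkAll 10 1024 = true := by decide +kernel
theorem a2 : allBits chkAll 10 2048 = true := by decide +kernel
theorem a3 : allBits chkAll 10 3072 = true := by decide +kernel
theorem a4 : allBits chkAll 10 4096 = true := by decide +kernel
theorem a5 : allBits chkAll 10 5120 = true := by decide +kernel
theorem a6 : allBits chkAll 10 6144 = true := by decide +kernel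
theorem bk0 : allBits (fun i => bif (and (Nat.ble 0 i) (Nat.blt i 1)) then chkBlockPt tab Sw 0 1 i (pr i) else true) 13 0 = true := by decide +kernel
theorem bk1 : allBits (fun i => bif (and (Nat.ble 1 i) (Nat.blt i 1361)) then chkBlockPt tab Sw 1 1361 i (pr i) else true) 13 0 = true := by decide +kernel
theorem bk2 : allBits (fun i => bif (and (Nat.ble 1361 i) (Nat.blt i 3401)) then chkBlockPt tab Sw 1361 3401 i (pr i) else true) 13 0 = true := by decide +kernel
theorem bk3 : allBits (fun i => bif (and (Nat.ble 3401 i) (Nat.blt i 4761)) then chkBlockPt tab Sw 3401 4761 i (pr i) else true) 13 0 = true := by decide +kernel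
theorem bk4 : allBits (fun i => bif (and (Nat.ble 4761 i) (Nat.blt i 5441)) then chkBlockPt tab Sw 4761 5441 i (pr i) else true) 13 0 = true := by decide +kernel
theorem bk5 : allBits (fun i => bif (and (Nat.ble 5441 i) (Nat.blt i 5561)) then chkBlockPt tab Sw 5441 5561 i (pr i) else true) 13 0 = true := by decide +kernel
theorem bk6 : allBits (fun i => bif (and (Nat.ble 5561 i) (Nat.blt i 6071)) then chkBlockPt tab Sw 5561 6071 i (pr i) else true) 13 0 = true := by decide +kernel
theorem bk7 : allBits (fun i => bif (and (Nat.ble 6071 i) (Nat.blt i 6156)) then chkBlockPt tab Sw 6071 6156 i (pr i) else true) 13 0 = true := by decide +kernel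
end Cfsg.Agent.Lib.ToddCox.J3T
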